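import Mathlib
import Cfsg.Agent.Fix.Quarter
import Cfsg.Agent.H23.HHWt

/-!
# Eigenspaces of elements normalizing a group of symplectic type
-/

set_option autoImplicit false

namespace Cfsg.Agent.Flav

open Module Cfsg.Agent.Fix
open scoped commutatorElement

section Grp

variable {G : Type*} [Group G]

theorem comm_pow_left {t w : G} (h : Commute t ⁅t, w⁆) (n : ℕ) : ⁅t ^ n, w⁆ = ⁅t, w⁆ ^ n := by
  have h1 : Commute t (w * t⁻¹ * w⁻¹) := by
    rw [show w * t⁻¹ * w⁻¹ = t⁻¹ * ⁅t, w⁆ by rw [commutatorElement_def]; group]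
    exact (Commute.refl t).inv_right.mul_right h
  rw [show ⁅t, w⁆ = t * (w * t⁻¹ * w⁻¹) by rw [commutatorElement_def]; group, h1.mul_pow, conj_pow,
    commutatorElement_def]
  group

theorem commute_of_comm_eq {a y y' : G} (h : ⁅a, y⁆ = ⁅a, y'⁆) : Commute a (y⁻¹ * y') := by
  rw [commutatorElement_def, commutatorElement_def] at h
  calc a * (y⁻¹ * y') = y⁻¹ * (a * y * a⁻¹ * y⁻¹)⁻¹ * a * y' := by group
    _ = y⁻¹ * y' * a := by rw [h]; group

end Grp

variable {k G V : Type*} [Field k] [Group G] [AddCommGroup V] [Module k V]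
  {ρ : Representation k G V}

theorem sum_finrank_le [FiniteDimensional k V] {ι : Type*} {D : ι → Submodule k V}
    (h : iSupIndep D) (S : Finset ι) : ∑ j ∈ S, finrank k (D j) ≤ finrank k V := by
  classical
  refine le_of_eq_of_le ?_ (Submodule.finrank_le (S.sup D))
  induction S using Finset.induction_on with
  | empty => rw [Finset.sup_empty, finrank_bot, Finset.sum_empty]
  | insert j S hj ih =>
    have := Submodule.finrank_sup_add_finrank_inf_eq (D j) (S.sup D)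
    rw [Finset.sup_insert, Finset.sum_insert hj, ih, ← this, ((h.supIndep' (insert j S))
      (Finset.subset_insert _ _) (Finset.mem_insert_self _ _) hj).eq_bot, finrank_bot, add_zero]

theorem shift [FiniteDimensional k V] {e g z : G} {ζ : kˣ} (hz : ρ z = (ζ : k) • 1)
    (h : e * g * e⁻¹ = z * g) (c : k) : orderOf ζ * finrank k (eg ρ g c) ≤ finrank k V := by
  classical
  by_cases hc : c = 0
  · rw [show eg ρ g c = ⊥ from (Submodule.eq_bot_iff _).2 fun v hv => rho_inj g (by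
      rw [mem_eg.1 hv, hc, zero_smul, map_zero]), finrank_bot, mul_zero]
    exact Nat.zero_le _
  have h1 : ∀ i : ℕ, finrank k (eg ρ g ((ζ ^ i : kˣ) * c)) = finrank k (eg ρ g c) := fun i => by
    induction i with
    | zero => rw [pow_zero, Units.val_one, one_mul]
    | succ i ih =>
      rw [← ih, ← finrank_eg_conj e, h]
      refine congrArg (fun U : Submodule k V => finrank k U) ?_
      ext v
      rw [mem_eg, mem_eg, rho_mul, hz, pow_succ', Units.val_mul, mul_assoc, mul_smul]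
      exact (smul_right_injective V ζ.ne_zero).eq_iff
  have h2 := sum_finrank_le (End.eigenspaces_iSupIndep (ρ g))
    ((Finset.range (orderOf ζ)).image fun i => ((ζ ^ i : kˣ) : k) * c)
  rw [Finset.sum_image fun i hi j hj e => pow_injOn_Iio_orderOf (Finset.mem_range.1 hi)
    (Finset.mem_range.1 hj) (Units.ext (mul_right_cancel₀ hc e))] at h2
  refine le_of_eq_of_le ?_ h2
  rw [← Finset.card_range (orderOf ζ), ← smul_eq_mul, ← Finset.sum_const, Finset.card_range]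
  exact Finset.sum_congr rfl fun i _ => (h1 i).symm

theorem apply_mem_eg {a x : G} (h : Commute a x) {c : k} {v : V} (hv : v ∈ eg ρ x c) :
    ρ a v ∈ eg ρ x c := by
  rw [mem_eg, ← rho_mul, ← h.eq, rho_mul, mem_eg.1 hv, map_smul]

theorem sub_mem_eg {a b x : G} (hb : Commute a b) (hx : Commute a x) {c : k} {v : V}
    (h1 : v ∈ eg ρ a c ⊔ eg ρ b c) (h2 : v ∈ eg ρ x c) :
    ρ a v - c • v ∈ eg ρ b c ⊓ eg ρ x c := by
  refine ⟨?_, sub_mem (apply_mem_eg hx h2) (Submodule.smul_mem _ _ h2)⟩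
  obtain ⟨y, hy, w, hw, rfl⟩ := Submodule.mem_sup.1 h1
  rw [map_add, mem_eg.1 hy, smul_add, add_sub_add_left_eq_sub]
  exact sub_mem (apply_mem_eg hb hw) (Submodule.smul_mem _ _ hw)

theorem add_le_of [FiniteDimensional k V] {a b x y : G} (hb : Commute a b) (hx : Commute a x)
    (hy : Commute a y) {c : k} (h1 : ∀ v ∈ eg ρ x c, v ∈ eg ρ y c → v ∈ eg ρ a c → v = 0)
    (h2 : ∀ v ∈ eg ρ x c, v ∈ eg ρ y c → v ∈ eg ρ b c → v = 0) :
    finrank k ↥(eg ρ a c ⊔ eg ρ b c) + finrank k ↥(eg ρ x c ⊓ eg ρ y c) ≤ finrank k V := by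
  have h3 : (eg ρ a c ⊔ eg ρ b c) ⊓ (eg ρ x c ⊓ eg ρ y c) = ⊥ :=
    (Submodule.eq_bot_iff _).2 fun v hv =>
      h1 v hv.2.1 hv.2.2 (mem_eg.2 (sub_eq_zero.1 (h2 _ (sub_mem_eg hb hx hv.1 hv.2.1).2
        (sub_mem_eg hb hy hv.1 hv.2.2).2 (sub_mem_eg hb hx hv.1 hv.2.1).1)))
  rw [← Submodule.finrank_sup_add_finrank_inf_eq, h3, finrank_bot]
  exact Submodule.finrank_le _

theorem eq_zero_of_smul {ζ : k} (h : ζ ≠ 1) {v : V} (hv : ζ • v = v) : v = 0 :=
  (smul_eq_zero.1 (by rw [sub_smul, hv, one_smul, sub_self] : (ζ - 1) • v = 0)).resolve_left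
    (sub_ne_zero.2 h)

theorem four [FiniteDimensional k V] {e g h z : G} {ζ : k} (hz : ρ z = ζ • 1)
    (hzc : ∀ x, Commute z x) (h3 : ζ ^ 3 ≠ 1) (hg : e * g * e⁻¹ = h * g)
    (hh : e * h * e⁻¹ = z * h) (hc : Commute h g) (c : k) :
    2 * finrank k (eg ρ g c) ≤ finrank k V := by
  have h1 : ζ ≠ 1 := fun e => h3 (by rw [e, one_pow])
  have hz' : ∀ v, ρ z v = ζ • v := fun v => by rw [hz]; rfl
  have e2 : e * (h * g) * e⁻¹ = z * (h * (h * g)) := by
    rw [show e * (h * g) * e⁻¹ = e * h * e⁻¹ * (e * g * e⁻¹) by group, hh, hg, mul_assoc]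
  have e3 : e * (z * (h * (h * g))) * e⁻¹ = z * (z * (h * (z * (h * (h * g))))) := by
    rw [show e * (z * (h * (h * g))) * e⁻¹ = e * z * e⁻¹ * (e * h * e⁻¹ * (e * (h * g) * e⁻¹)) by
      group, hh, e2, ← (hzc e).eq, mul_inv_cancel_right, mul_assoc z h]
  have d1 := finrank_eg_conj (ρ := ρ) e g c
  have d2 := finrank_eg_conj (ρ := ρ) e (h * g) c
  have d3 := finrank_eg_conj (ρ := ρ) e (z * (h * (h * g))) c
  rw [hg] at d1
  rw [e2] at d2
  rw [e3] at d3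
  have cg : ∀ {x : G}, Commute x h → Commute x g → Commute x (h * g) ∧
      Commute x (z * (h * (h * g))) ∧ Commute x (z * (z * (h * (z * (h * (h * g)))))) :=
    fun {x} a b => by
      have c1 := a.mul_right b
      have c2 := (hzc x).symm.mul_right (a.mul_right c1)
      exact ⟨c1, c2, (hzc x).symm.mul_right ((hzc x).symm.mul_right (a.mul_right c2))⟩
  obtain ⟨c1, c2, c3⟩ := cg hc.symm (Commute.refl g)
  obtain ⟨c4, c5, c6⟩ := cg (Commute.refl h) hc
  have i0 : ∀ {x : G} {v : V}, ρ x v = 0 → v = 0 := fun {x} {v} e =>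
    rho_inj x (e.trans (map_zero _).symm)
  have a1 := add_le_of (ρ := ρ) (c := c) c1 c2 c3 (fun v p q r => ?_) fun v p q r => ?_
  have a2 := add_le_of (ρ := ρ) (c := c) (cg c5.symm c2.symm).2.2 c2.symm (cg c5.symm c2.symm).1
    (fun v p q r => ?_) fun v p q r => ?_
  · have b1 := Submodule.finrank_sup_add_finrank_inf_eq (eg ρ g c) (eg ρ (h * g) c)
    have b2 := Submodule.finrank_sup_add_finrank_inf_eq (eg ρ (z * (h * (h * g))) c)
      (eg ρ (z * (z * (h * (z * (h * (h * g)))))) c)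
    omega
  all_goals simp only [mem_eg, rho_mul, hz', map_smul] at p q r
  · rw [← p] at q r
    rw [q, q] at r
    exact i0 (eq_zero_of_smul h1 r)
  · rw [← p] at q r
    rw [q, q, q, smul_smul, smul_smul, ← pow_three'] at r
    exact i0 (eq_zero_of_smul h3 r)
  · rw [← r] at p q
    generalize hu : ρ g v = u at *
    have q1 : ζ • ζ • ρ h u = u := by
      conv_lhs => rw [← p, map_smul]
      exact q
    have q2 := congrArg (fun w => ζ • ζ • ρ h w) q1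
    simp only [map_smul] at q2
    rw [p, q1, smul_smul, smul_smul, ← pow_three'] at q2
    exact i0 (hu.trans (eq_zero_of_smul h3 q2))
  · rw [← r] at p q
    generalize hu : ρ h (ρ g v) = u at *
    have q2 := congrArg (fun w => ζ • ρ h w) p
    simp only [map_smul] at q2
    rw [q2, p] at q
    exact i0 (i0 (hu.trans (eq_zero_of_smul h1 q)))

theorem three [FiniteDimensional k V] {e g h : G} {r : ℕ} (hr : Odd r) (hk : (r : k) ≠ 0)
    (hhr : h ^ r = 1) (hg : e * g * e⁻¹ = h * g) (hh : e * h * e⁻¹ = h) (hc : Commute h g) (c : k) :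
    3 * finrank k (eg ρ g c) ≤ finrank k V + 2 * finrank k (eg ρ h 1) := by
  have e2 : e * (h * g) * e⁻¹ = h * (h * g) := by
    conv_rhs => rw [← hg]
    conv_rhs => rw [← hh]
    group
  have d1 := finrank_eg_conj (ρ := ρ) e g c
  have d2 := finrank_eg_conj (ρ := ρ) e (h * g) c
  rw [hg] at d1
  rw [e2] at d2
  have c1 := hc.symm.mul_right (Commute.refl g)
  have b1 := Submodule.finrank_sup_add_finrank_inf_eq (eg ρ g c) (eg ρ (h * g) c)
  have b2 := Submodule.finrank_sup_add_finrank_inf_eq (eg ρ g c ⊔ eg ρ (h * g) c)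
    (eg ρ (h * (h * g)) c)
  have b3 := Submodule.finrank_le (eg ρ g c ⊔ eg ρ (h * g) c ⊔ eg ρ (h * (h * g)) c)
  have b4 : eg ρ g c ⊓ eg ρ (h * g) c ≤ eg ρ h 1 := fun v hv => mem_eg_one.2 (by
    simpa using eg_inf_le hv.1 hv.2)
  have b5 : (eg ρ g c ⊔ eg ρ (h * g) c) ⊓ eg ρ (h * (h * g)) c ≤ eg ρ h 1 := fun v hv => by
    have h1 := sub_mem_eg c1 (hc.symm.mul_right c1) hv.1 hv.2
    have h2 := eg_inf_le h1.1 h1.2
    rw [mul_inv_cancel_right] at h2
    have h3 : ρ h v - v ∈ eg ρ g c := by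
      rw [mem_eg, map_sub, smul_sub, ← rho_mul, ← hc.eq, rho_mul, sub_eq_sub_iff_sub_eq_sub,
        ← map_smul, ← map_sub, h2]
    have h4 := eg_inf_le h3 (sub_mem (apply_mem_eg ((Commute.refl h).mul_right
      ((Commute.refl h).mul_right hc)) hv.2) hv.2)
    rw [← mul_assoc, mul_inv_cancel_right] at h4
    refine mem_eg_one.2 (H23.HH.eq_of_sq_eq_zero hk hhr ?_)
    obtain ⟨m, rfl⟩ := hr
    have h5 : ∀ i : ℕ, ρ ((h * h) ^ i) (ρ h v - v) = ρ h v - v := fun i => by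
      induction i with
      | zero => simp
      | succ i ih => rw [pow_succ, rho_mul, h4, ih]
    have h6 := h5 (m + 1)
    rwa [← sq, ← pow_mul, show 2 * (m + 1) = 2 * m + 1 + 1 by ring, pow_succ, hhr, one_mul] at h6
  have b6 := Submodule.finrank_mono b4
  have b7 := Submodule.finrank_mono b5
  omega

/-- A group of symplectic type containing the scalars. -/
structure St (ρ : Representation k G V) (s : kˣ →* G) (E : Subgroup G) (r : ℕ) : Prop where
  prime : r.Prime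
  inj : Function.Injective s
  sc : ∀ c, ρ (s c) = (c : k) • 1
  cen : ∀ c g, Commute (s c) g
  comm : ∀ a ∈ E, ∀ b ∈ E, ∃ c, c ^ r = 1 ∧ ⁅a, b⁆ = s c
  cent : ∀ g, (∀ a ∈ E, Commute a g) → g ∈ s.range

namespace St

variable {s : kˣ →* G} {E : Subgroup G} {r : ℕ} {a b y g : G}

theorem cm (h : St ρ s E r) (ha : a ∈ E) (hb : b ∈ E) (x : G) : Commute ⁅a, b⁆ x := by
  obtain ⟨c, -, e⟩ := h.comm a ha b hb
  exact e ▸ h.cen c x

theorem mul_left (h : St ρ s E r) (hb : b ∈ E) (hy : y ∈ E) (a : G) :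
    ⁅a * b, y⁆ = ⁅b, y⁆ * ⁅a, y⁆ := by
  rw [show ⁅a * b, y⁆ = a * ⁅b, y⁆ * a⁻¹ * ⁅a, y⁆ by simp only [commutatorElement_def]; group,
    ← (h.cm hb hy a).eq, mul_inv_cancel_right]

theorem mul_right (h : St ρ s E r) (hb : b ∈ E) (hy : y ∈ E) (a : G) :
    ⁅y, a * b⁆ = ⁅y, a⁆ * ⁅y, b⁆ := by
  rw [← commutatorElement_inv, h.mul_left hb hy, mul_inv_rev, commutatorElement_inv,
    commutatorElement_inv]

theorem conj (h : St ρ s E r) (ha : a ∈ E) (hb : b ∈ E) (g : G) :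
    ⁅g * a * g⁻¹, g * b * g⁻¹⁆ = ⁅a, b⁆ := by
  rw [show ⁅g * a * g⁻¹, g * b * g⁻¹⁆ = g * ⁅a, b⁆ * g⁻¹ by simp only [commutatorElement_def]; group,
    ← (h.cm ha hb g).eq, mul_inv_cancel_right]

theorem pow_mem (h : St ρ s E r) (ha : a ∈ E) : a ^ r ∈ s.range := h.cent _ fun b hb => by
  obtain ⟨c, hc, e⟩ := h.comm a ha b hb
  rw [commute_iff_eq, eq_comm, ← commutatorElement_eq_one_iff_mul_comm,
    comm_pow_left (h.cm ha hb a).symm, e, ← map_pow, hc, map_one]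

theorem exists_root (h : St ρ s E r) (ha : a ∈ E) (h0 : a ∉ s.range) :
    ∃ b ∈ E, ∃ c, orderOf c = r ∧ ⁅b, a⁆ = s c := by
  by_contra hc
  refine h0 (h.cent a fun b hb => ?_)
  obtain ⟨c, h1, e⟩ := h.comm b hb a ha
  have := Fact.mk h.prime
  by_contra h2
  exact hc ⟨b, hb, c, orderOf_eq_prime h1 fun h3 => h2 (commutatorElement_eq_one_iff_commute.1
    (by rw [e, h3, map_one])), e⟩

theorem comm_mem (hg : g ∈ Subgroup.normalizer (E : Set G)) (ha : a ∈ E) : ⁅a, g⁆ ∈ E := by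
  rw [show ⁅a, g⁆ = a * (g * a⁻¹ * g⁻¹) by rw [commutatorElement_def]; group]
  exact E.mul_mem ha ((Subgroup.mem_normalizer_iff.1 hg _).1 (E.inv_mem ha))

/-- polarization -/
theorem polar (h : St ρ s E r) (hg : g ∈ Subgroup.normalizer (E : Set G))
    (h0 : ∀ a ∈ E, ⁅a, g⁆ ∈ s.range → Commute a g)
    (h1 : ∀ e ∈ E, ⁅⁅e, g⁆, g * ⁅e, g⁆ * g⁻¹⁆ = 1) (hb : b ∈ E) {p : ℕ} (hp : Odd p)
    (hgp : g ^ p = 1) : Commute (⁅b, g⁆⁻¹ * g * ⁅b, g⁆) g := by
  have n1 : ∀ {x}, x ∈ E → g * x * g⁻¹ ∈ E := fun hx => (Subgroup.mem_normalizer_iff.1 hg _).1 hx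
  have n2 : ∀ {x}, x ∈ E → g⁻¹ * x * g ∈ E := fun hx => (Subgroup.mem_normalizer_iff''.1 hg _).1 hx
  obtain ⟨w, hw⟩ : ∃ w, w = ⁅b, g⁆ := ⟨_, rfl⟩
  have hwE : w ∈ E := hw ▸ comm_mem hg hb
  have hy : g * w⁻¹ * g⁻¹ * (g⁻¹ * w * g) ∈ E := E.mul_mem (n1 (E.inv_mem hwE)) (n2 hwE)
  have h2 : ∀ a ∈ E, Commute a ((g * w⁻¹ * g⁻¹ * (g⁻¹ * w * g))⁻¹ *
      (g⁻¹ * (g * w⁻¹ * g⁻¹ * (g⁻¹ * w * g)) * g)) := fun a ha => by
    have h3 := h1 _ (E.mul_mem ha hb)
    have huE := comm_mem hg ha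
    have hzE : ⁅a, w⁆ ∈ E := comm_mem (Subgroup.le_normalizer hwE) ha
    have hz := h.cm ha hwE
    rw [show ⁅a * b, g⁆ = ⁅a, w⁆ * (w * ⁅a, g⁆) by
      rw [hw]; simp only [commutatorElement_def]; group, show g * (⁅a, w⁆ * (w * ⁅a, g⁆)) * g⁻¹ =
        g * ⁅a, w⁆ * g⁻¹ * ((g * w * g⁻¹) * (g * ⁅a, g⁆ * g⁻¹)) by group, ← (hz g).eq,
      mul_inv_cancel_right, h.mul_left (E.mul_mem hwE huE) (E.mul_mem hzE
        (E.mul_mem (n1 hwE) (n1 huE))), (hz _).commutator_eq, mul_one,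
      h.mul_right (E.mul_mem (n1 hwE) (n1 huE)) (E.mul_mem hwE huE),
      (hz _).symm.commutator_eq, one_mul, h.mul_left huE (E.mul_mem (n1 hwE) (n1 huE)),
      h.mul_right (n1 huE) huE, h.mul_right (n1 huE) hwE, h1 a ha, hw, h1 b hb, ← hw, mul_one,
      one_mul, ← h.conj hwE (n1 huE) g⁻¹, inv_inv, mul_eq_one_iff_eq_inv, commutatorElement_inv,
      show g⁻¹ * (g * ⁅a, g⁆ * g⁻¹) * g = ⁅a, g⁆ by group] at h3
    have h4 := (commute_of_comm_eq h3).commutator_eq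
    rw [show (g * w * g⁻¹)⁻¹ = g * w⁻¹ * g⁻¹ by group] at h4
    generalize g * w⁻¹ * g⁻¹ * (g⁻¹ * w * g) = y at *
    rw [show ⁅a, g⁆ = a * (g * a⁻¹ * g⁻¹) by rw [commutatorElement_def]; group,
      h.mul_left (n1 (E.inv_mem ha)) hy, ← h.conj (n1 (E.inv_mem ha)) hy g⁻¹, inv_inv,
      show g⁻¹ * (g * a⁻¹ * g⁻¹) * g = a⁻¹ by group] at h4
    refine commute_of_comm_eq ?_
    rw [← mul_right_inj ⁅a⁻¹, g⁻¹ * y * g⁆, h4, ← h.mul_left (E.inv_mem ha) (n2 hy),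
      mul_inv_cancel, commutatorElement_one_left]
  obtain ⟨c, hc⟩ := h.cent _ h2
  have h3 := h0 _ hy ⟨c, by
    generalize g * w⁻¹ * g⁻¹ * (g⁻¹ * w * g) = y at *
    rw [show ⁅y, g⁆ = g * y * (y⁻¹ * (g⁻¹ * y * g)) * (g * y)⁻¹ by
      rw [commutatorElement_def]; group, ← hc, ← (h.cen c _).eq, mul_inv_cancel_right]⟩
  have h4 := (((Commute.refl g).mul_left h3.inv_left).mul_left (Commute.refl g))
  obtain ⟨m, rfl⟩ := hp
  have h5 := h4.pow_left (m + 1)
  rwa [show g * (g * w⁻¹ * g⁻¹ * (g⁻¹ * w * g))⁻¹ * g = g * (g⁻¹ * (w⁻¹ * g ^ 2 * w⁻¹⁻¹) * g⁻¹) * g by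
    group, show ∀ x, g * (g⁻¹ * x * g⁻¹) * g = x from fun x => by group, conj_pow, ← pow_mul,
    show 2 * (m + 1) = 2 * m + 1 + 1 by ring, pow_succ, hgp, one_mul, inv_inv, hw] at h5

theorem dvd_finrank [FiniteDimensional k V] (h : St ρ s E r) {c : kˣ} (hc : ⁅a, b⁆ = s c) :
    orderOf c ∣ finrank k V := by
  have h1 : a * b = s c * (b * a) := by rw [← hc, commutatorElement_def]; group
  have h2 := congrArg (fun x => LinearMap.det (ρ x)) h1
  have h3 : ∀ x, LinearMap.det (ρ x) ≠ 0 := fun x e => by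
    have : LinearMap.det (ρ x) * LinearMap.det (ρ x⁻¹) = 1 := by
      rw [← map_mul, ← map_mul, mul_inv_cancel, map_one, map_one]
    rw [e, zero_mul] at this
    exact zero_ne_one this
  simp only [map_mul, h.sc, LinearMap.det_smul, map_one, mul_one] at h2
  rw [mul_comm, eq_comm, mul_eq_right₀ (mul_ne_zero (h3 _) (h3 _))] at h2
  exact orderOf_dvd_of_pow_eq_one (Units.ext (by simpa using h2))

theorem bound [FiniteDimensional k V] (h : St ρ s E r) (hg : g ∈ Subgroup.normalizer (E : Set G))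
    {p : ℕ} (hp : p.Prime) (hgp : g ^ p = 1) (hgZ : g ∉ s.range) (c : k) :
    4 * finrank k (eg ρ g c) ≤ 3 * finrank k V ∧ (p ≠ 2 → 2 * finrank k (eg ρ g c) ≤ finrank k V ∨
      p = 3 ∧ 3 * finrank k (eg ρ g c) ≤ 2 * finrank k V ∧ 3 ∣ finrank k V) := by
  have hcm : ∀ e g : G, e * g * e⁻¹ = ⁅e, g⁆ * g := fun e g => by
    rw [commutatorElement_def]; group
  by_cases h0 : ∀ a ∈ E, ⁅a, g⁆ ∈ s.range → Commute a g
  swap
  · push Not at h0
    obtain ⟨a, -, ⟨ζ, hζ⟩, h1⟩ := h0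
    have h2 := shift (h.sc ζ) ((hcm a g).trans (by rw [hζ])) c
    have h3 : ζ ^ p = 1 := h.inj (by
      rw [map_pow, map_one, hζ, ← inv_eq_one, ← inv_pow, commutatorElement_inv, ← comm_pow_left, hgp,
        commutatorElement_one_left]
      rw [← commutatorElement_inv, ← hζ]
      exact (h.cen ζ g).symm.inv_right)
    have := Fact.mk hp
    rw [orderOf_eq_prime h3 fun e => h1 (commutatorElement_eq_one_iff_commute.1
      (by rw [← hζ, e, map_one]))] at h2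
    have h4 := (Nat.mul_le_mul_right _ hp.two_le).trans h2
    exact ⟨by omega, fun _ => Or.inl h4⟩
  have key : ∀ e ∈ E, ¬ Commute e g → r * finrank k (eg ρ ⁅e, g⁆ 1) ≤ finrank k V ∧
      r ∣ finrank k V ∧ (r : k) ≠ 0 := fun e he hc => by
    obtain ⟨b, -, ζ, h1, h2⟩ := h.exists_root (comm_mem hg he) fun h1 => hc (h0 e he h1)
    refine ⟨h1 ▸ shift (h.sc ζ) ((hcm b _).trans (by rw [h2])) 1, h1 ▸ h.dvd_finrank h2, ?_⟩
    have := NeZero.of_pos h.prime.pos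
    exact (IsPrimitiveRoot.neZero' (IsPrimitiveRoot.coe_units_iff.2
      (h1 ▸ IsPrimitiveRoot.orderOf ζ))).out
  obtain ⟨b, hb, hbg⟩ : ∃ b ∈ E, ¬ Commute b g := by
    by_contra hc
    push Not at hc
    exact hgZ (h.cent g hc)
  refine ⟨?_, fun h2 => ?_⟩
  · have h1 := (Nat.mul_le_mul_right _ h.prime.two_le).trans (key b hb hbg).1
    have h2 := two_mul_eg_le (ρ := ρ) b g c
    omega
  by_cases h1 : ∀ e ∈ E, ⁅⁅e, g⁆, g * ⁅e, g⁆ * g⁻¹⁆ = 1
  swap
  · push Not at h1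
    obtain ⟨e, he, h1⟩ := h1
    obtain ⟨ζ, -, hζ⟩ := h.comm _ (comm_mem hg he) _
      ((Subgroup.mem_normalizer_iff.1 hg _).1 (comm_mem hg he))
    have h3 := two_mul_le (C := ⊥) (finrank_eg_conj (ρ := ρ) e g c) fun v hv => by
      have h4 : ρ ⁅e, g⁆ v = v := eg_inf_le hv.1 hv.2
      have h5 : ρ (g * ⁅e, g⁆ * g⁻¹) v = v :=
        eg_inf_le hv.1 (by rw [mem_eg, rho_mul, h4]; exact mem_eg.1 hv.1)
      have h6 : ρ (⁅⁅e, g⁆, g * ⁅e, g⁆ * g⁻¹⁆ * (g * ⁅e, g⁆ * g⁻¹ * ⁅e, g⁆)) v = v := by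
        rw [commutatorElement_def ⁅e, g⁆, mul_assoc, mul_assoc, inv_mul_cancel_left, inv_mul_cancel,
          mul_one, rho_mul, h5, h4]
      rw [rho_mul, rho_mul, h4, h5, hζ, h.sc] at h6
      exact eq_zero_of_smul (fun e => h1 (by rw [hζ, Units.val_eq_one.1 e, map_one])) h6
    rw [finrank_bot] at h3
    exact Or.inl h3
  have hodd := hp.odd_of_ne_two h2
  obtain ⟨e, he, h3, h4⟩ : ∃ e ∈ E, ¬ Commute e g ∧ Commute ⁅e, g⁆ g := by
    by_cases h3 : Commute ⁅b, g⁆ g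
    · exact ⟨b, hb, hbg, h3⟩
    refine ⟨_, E.inv_mem (comm_mem hg hb), fun e => h3 (by simpa using e.inv_left), ?_⟩
    rw [commutatorElement_def ⁅b, g⁆⁻¹, inv_inv]
    exact (h.polar hg h0 h1 hb hodd hgp).mul_left (Commute.refl g).inv_left
  have h5 : ⁅e, g⁆ ^ p = 1 := by
    rw [← inv_eq_one, ← inv_pow, commutatorElement_inv, ← comm_pow_left, hgp,
      commutatorElement_one_left]
    rw [← commutatorElement_inv]
    exact h4.symm.inv_right
  obtain rfl : r = p := by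
    by_contra hrp
    obtain ⟨m, hm⟩ := Nat.exists_mul_mod_eq_one_of_coprime
      ((Nat.coprime_primes h.prime hp).2 hrp) hp.one_lt
    refine h3 (h0 e he ?_)
    have h6 := Subgroup.pow_mem _ (h.pow_mem (comm_mem hg he)) m
    rwa [← pow_mul, pow_eq_pow_mod _ h5, hm.2, pow_one] at h6
  obtain ⟨h6, h7, h8⟩ := key e he h3
  by_cases hr3 : r = 3
  · subst hr3
    have h9 := two_mul_eg_le (ρ := ρ) e g c
    exact Or.inr ⟨rfl, by omega, h7⟩
  left
  obtain ⟨ζ, h9, hζ⟩ := h.comm e he _ (comm_mem hg he)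
  by_cases h10 : ζ = 1
  · have h11 := three (ρ := ρ) hodd h8 h5 (hcm e g) (by rw [hcm, hζ, h10, map_one, one_mul]) h4 c
    have h12 := (Nat.mul_le_mul_right _ (hp.five_le_of_ne_two_of_ne_three h2 hr3)).trans h6
    omega
  · refine four (h.sc ζ) (h.cen ζ) (fun e => h10 ?_) (hcm e g) (by rw [hcm, hζ]) h4 c
    exact orderOf_eq_one_iff.1 (Nat.eq_one_of_dvd_coprimes
      ((Nat.coprime_primes hp Nat.prime_three).2 hr3) (orderOf_dvd_of_pow_eq_one h9)
      (orderOf_dvd_of_pow_eq_one (Units.ext (by simpa using e))))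

end St

end Cfsg.Agent.Flav
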